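import Cfsg.Agent.H114.E8L.Stmt
import Cfsg.Agent.H934.E83.Inj
import Cfsg.Agent.H627.E8L.Fixed

/-!
# S5925, box E: `BE` (helper627)
-/

set_option autoImplicit false
set_option maxRecDepth 100000

namespace Cfsg.Agent.H627.E8L

open Module Matrix
open Cfsg.Lie Cfsg.Agent.ChevalleyStructure Cfsg.Agent.ChevalleyStructure.Elts
open Cfsg.Agent.H395.E83 Cfsg.Agent.H238.E8 Cfsg.Agent.H934.E83 Cfsg.Agent.H114.E8L

/-- `SL₅` of the second factor is in `E₂` -/
theorem ph2_mem (K : Type*) [Field K] (A : SpecialLinearGroup (Fin 5) K) : (ph2 K A : GL chevE8.Idx K) ∈ E2 K inE8 := by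
  refine tv_ind (fun A => (ph2 K A : GL chevE8.Idx K) ∈ E2 K inE8) ?_ ?_ A
  · intro i j hij c
    rw [coe_ph2_tv]
    refine Subgroup.subset_closure ⟨r2 i j, ?_, _, rfl⟩
    have h : ∀ i j : Fin 5, i ≠ j → r2 i j ∈ R2 := by decide
    exact h i j hij
  · intro A B hA hB
    rw [map_mul, Subgroup.coe_mul]
    exact mul_mem hA hB

/-- the relations of the operators -/
theorem rel_map {G A : Type*} [Group G] [Ring A] {x y t : G} (h : Cfsg.Agent.H791.E8L.Rel x y t) (ρ : G →* A)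
    (h3 : (3 : A) = 0) : Cfsg.Agent.H879.E83.Rel (ρ x) (ρ y) (ρ t) where
  x11 := by rw [← map_pow, h.x11, map_one]
  y5 := by rw [← map_pow, h.y5, map_one]
  tt := by rw [← map_mul, h.t2, map_one]
  yx := by
    have h1 := h.y_pow 1
    rw [pow_one, mul_one] at h1
    rw [← map_mul, ← map_pow, ← map_mul, h1]
  ty := by
    have h1 : t * y = y⁻¹ * t := by rw [← h.ty, mul_assoc _ t t, h.t2, mul_one]
    have h2 : y ^ 4 = y⁻¹ := by
      rw [eq_inv_iff_mul_eq_one, ← pow_succ, h.y5]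
    rw [← map_mul, ← map_pow, ← map_mul, h1, h2]
  txt := by
    have h2 : x ^ 10 = x⁻¹ := by
      rw [eq_inv_iff_mul_eq_one, ← pow_succ, h.x11]
    have h3 := h.xt
    rw [pow_succ, pow_two] at h3
    have h4 : x * (t * x * t) * (x * t) = 1 := by rw [← h3]; simp only [mul_assoc]
    have ht : t⁻¹ = t := inv_eq_of_mul_eq_one_right h.t2
    have h5 : t * x * t = x⁻¹ * (x * (t * x * t) * (x * t)) * (x * t)⁻¹ := by group
    have h6 : t * x * t = x ^ 10 * t * x ^ 10 := by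
      rw [h5, h4, h2, _root_.mul_inv_rev, ht]
      group
    rw [← map_mul, ← map_mul, ← map_pow, ← map_mul, ← map_mul, h6]
  three := h3

theorem three_zero : (3 : Module.End (ZMod 3) (chevE8.Idx → ZMod 3)) = 0 := by
  have h3 : (3 : ZMod 3) = 0 := rfl
  have h4 : (3 : Module.End (ZMod 3) (chevE8.Idx → ZMod 3)) = algebraMap (ZMod 3) _ 3 := (map_ofNat _ 3).symm
  rw [h4, h3, map_zero]

theorem rel_adj {x y t : G3} (h : Cfsg.Agent.H791.E8L.Rel x y t) :
    Cfsg.Agent.H879.E83.Rel (adjR x) (adjR y) (adjR t) := rel_map h adjR three_zero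

theorem fix24 : 24 ≤ finrank (ZMod 3) ↥(LinearMap.ker (adjR x0 - 1) ⊓ LinearMap.ker (adjR y2 - 1)) :=
  h24 (hE := inE8) (ph2_mem (ZMod 3) MoS) (ph2_mem (ZMod 3) FrS)

/-- **box E** -/
theorem be : BE := fun _ h hn =>
  fix_le (rel_adj h) h.x11 (fun w h1 h2 h3 => hn w h1 h2 h3) fix24

end Cfsg.Agent.H627.E8L
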